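import Cfsg.Agent.H226.R2.Base

/-!
# S4829, `Row2`: a character of norm at most four with one rational constituent of odd degree (helper310)

`row2_of_four` : `ψ` a rational generalized character of odd degree fixed by all automorphisms, `[ψ, 1] = 0`, `[ψ, ψ] ≤ 4`,
with a rational constituent of odd degree.
-/

set_option autoImplicit false

namespace Cfsg.Agent.H310.R2

open Cfsg Cfsg.Agent.Characters.Core Cfsg.Agent.Characters Cfsg.Agent.H636.Gow Cfsg.Agent.H770.CY MulAction
open Cfsg.Agent.H707.OddLift Cfsg.Agent.H707.Norm Cfsg.Agent.H707.Orbits Cfsg.Agent.H226.R2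

attribute [local instance] irrAction

universe u

variable {S : Type u} [Group S] [Fintype S]

theorem rat_of_fixed {χ : IrrCharacter S} (h : ∀ σ : ℂ ≃+* ℂ, σ • χ = χ) (g : S) : ∃ q : ℚ, (χ : S → ℂ) g = q := by
  apply GaloisBasic.exists_rat_of_forall_ringEquiv
  · exact (GaloisBasic.isIntegral_apply (isIrr_isCharacter χ.2) g).tower_top
  · intro σ
    exact congrFun (congrArg Subtype.val (h σ)) g

theorem fixed_of_rat {χ : IrrCharacter S} (h : ∀ g : S, ∃ q : ℚ, (χ : S → ℂ) g = q) (σ : ℂ ≃+* ℂ) : σ • χ = χ := by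
  apply Subtype.ext
  funext g
  obtain ⟨q, hq⟩ := h g
  change σ ((χ : S → ℂ) g) = (χ : S → ℂ) g
  rw [hq, map_ratCast]

/-- **norm at most four** -/
theorem row2_of_four {ψ : S → ℂ} (hψ : IsGeneralizedCharacter S ψ) (hrat : ∀ g : S, ∃ q : ℚ, ψ g = q)
    (h1 : classInner ψ 1 = 0) (hodd : ∃ k : ℤ, Odd k ∧ ψ 1 = k) {n : ℕ} (hn : classInner ψ ψ = n) (hn4 : n ≤ 4)
    (hinv : ∀ (b : MulAut S) (x : S), ψ (b x) = ψ x) {x₁ : IrrCharacter S} (hx : OddDeg (x₁ : S → ℂ))
    (hx0 : classInner ψ (x₁ : S → ℂ) ≠ 0) (hxr : ∀ g : S, ∃ q : ℚ, (x₁ : S → ℂ) g = q) : Row2 S := by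
  classical
  intro B hB
  obtain ⟨T, hT, hT1, hT2, hT3, hT4, hT5⟩ := exists_supp hψ h1 hodd
  have hle := hT3 n hn
  let _ := twAct (S := S)
  obtain ⟨y, hy, hf⟩ := exists_fixed_of_odd (B := B) hB T hT (fun b χ hχ => hT4 b.1 (fun x => hinv b.1 x) χ hχ)
  have hyf : ∀ b ∈ B, tw b y = y := fun b hb => hf ⟨b, hb⟩
  suffices key : ∃ z ∈ T, (∀ b ∈ B, tw b z = z) ∧ ∀ g : S, ∃ q : ℚ, (z : S → ℂ) g = q by
    obtain ⟨z, hz, hzf, hzr⟩ := key
    exact RatInv.exists_irr ⟨z, z.2, hT2 z hz, ((hT1 z).1 hz).1, hzr, fun b hb => mem_stab_iff_tw.1 (hzf b hb)⟩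
  have hcard : T.card = 1 ∨ T.card = 3 := by
    obtain ⟨k, hk⟩ := hT
    omega
  rcases hcard with h3 | h3
  · obtain ⟨χ, rfl⟩ := Finset.card_eq_one.1 h3
    have e := Finset.mem_singleton.1 hy
    subst e
    exact ⟨y, hy, hyf, rat_of_fixed fun σ => Finset.mem_singleton.1 (hT5 hrat σ y hy)⟩
  · -- `x₁ ∈ T`
    have hxT : x₁ ∈ T := by
      by_contra hcon
      have := finite_irr (G := S)
      have := Fintype.ofFinite (IrrCharacter S)
      obtain ⟨m, hm⟩ := isGeneralizedCharacter_iff.1 hψ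
      have h4 := sum_sq hm hn
      have h5 : ∀ χ ∈ T, (1 : ℤ) ≤ m χ ^ 2 := by
        intro χ hχ
        obtain ⟨-, k, hk, hk1⟩ := (hT1 χ).1 hχ
        rw [coeff_eq hm] at hk1
        have h6 : m χ = k := by exact_mod_cast hk1
        have h7 : m χ ≠ 0 := by
          rw [h6]
          rintro rfl
          exact absurd hk (by decide)
        have := sq_pos_of_ne_zero h7
        omega
      have h6 : (4 : ℤ) ≤ m x₁ ^ 2 := by
        have h7 : ¬ Odd (m x₁) := fun h8 => hcon ((hT1 x₁).2 ⟨hx, m x₁, h8, coeff_eq hm x₁⟩)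
        rw [Int.not_odd_iff_even] at h7
        have h8 : m x₁ ≠ 0 := by
          intro h9
          rw [coeff_eq hm, h9] at hx0
          exact hx0 Int.cast_zero
        obtain ⟨r, hr⟩ := h7
        have h9 : r ≠ 0 := by
          rintro rfl
          exact h8 (by rw [hr]; rfl)
        have := sq_pos_of_ne_zero h9
        have e : m x₁ ^ 2 = 4 * r ^ 2 := by rw [hr]; ring
        omega
      have h7 : ∑ χ ∈ insert x₁ T, m χ ^ 2 ≤ ∑ χ, m χ ^ 2 :=
        Finset.sum_le_sum_of_subset_of_nonneg (Finset.subset_univ _) fun _ _ _ => sq_nonneg _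
      rw [Finset.sum_insert hcon, h4] at h7
      have h8 := Finset.card_nsmul_le_sum T (fun χ => m χ ^ 2) 1 h5
      rw [h3] at h8
      simp only [nsmul_eq_mul, Nat.cast_ofNat, mul_one] at h8
      have h9 : (n : ℤ) ≤ 4 := by exact_mod_cast hn4
      linarith
    by_cases hxf : ∀ b ∈ B, tw b x₁ = x₁
    · exact ⟨x₁, hxT, hxf, hxr⟩
    · push Not at hxf
      obtain ⟨b, hb, hbx⟩ := hxf
      have hx2T : tw b x₁ ∈ T := hT4 b (fun x => hinv b x) x₁ hxT
      have hyx : x₁ ≠ y := by
        rintro rfl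
        exact hbx (hyf b hb)
      have hyx2 : tw b x₁ ≠ y := by
        intro h4
        apply hyx
        have h5 : tw b⁻¹ (tw b x₁) = tw b⁻¹ y := by rw [h4]
        rw [← tw_mul, inv_mul_cancel, tw_one, hyf b⁻¹ (inv_mem hb)] at h5
        exact h5
      have hTe : T = {x₁, tw b x₁, y} := by
        symm
        apply Finset.eq_of_subset_of_card_le
        · intro χ hχ
          simp only [Finset.mem_insert, Finset.mem_singleton] at hχ
          rcases hχ with rfl | rfl | rfl
          · exact hxT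
          · exact hx2T
          · exact hy
        · rw [h3, Finset.card_insert_of_notMem, Finset.card_insert_of_notMem, Finset.card_singleton]
          · simpa using hyx2
          · simp only [Finset.mem_insert, Finset.mem_singleton, not_or]
            exact ⟨fun h => hbx h.symm, hyx⟩
      have hx2r : ∀ g : S, ∃ q : ℚ, ((tw b x₁ : IrrCharacter S) : S → ℂ) g = q := fun g => hxr (b⁻¹ g)
      refine ⟨y, hy, hyf, rat_of_fixed fun σ => ?_⟩
      have h4 := hT5 hrat σ y hy
      rw [hTe] at h4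
      simp only [Finset.mem_insert, Finset.mem_singleton] at h4
      have inj : ∀ χ₁ χ₂ : IrrCharacter S, σ • χ₁ = χ₂ → σ • χ₂ = χ₂ → χ₁ = χ₂ := by
        intro χ₁ χ₂ h5 h6
        apply Subtype.ext
        funext g
        apply σ.injective
        have h7 := congrFun (congrArg Subtype.val (h5.trans h6.symm)) g
        exact h7
      rcases h4 with h4 | h4 | h4
      · exact absurd (inj _ _ h4 (fixed_of_rat hxr σ)).symm hyx
      · exact absurd (inj _ _ h4 (fixed_of_rat hx2r σ)).symm hyx2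
      · exact h4

end Cfsg.Agent.H310.R2
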